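-- Team project OPARM (S5991), package [UEX] (helper43): the unipotent element
-- `[J_3, J_2^(k-1), J_1]` of `Ω⁻_{2k+2}(q)`, `k` odd, with fixed anisotropic vector `t`,
-- `Q t = s`.  `x = exp(2 S)`, `S` skew-adjoint: `S = (A on the hyperbolic part) + (u ∧ e)`.
import Mathlib
import Cfsg.Agent.Lib.Helper64.OParM.UEDefs
import Cfsg.Agent.Lib.Helper12.OHyp.EBlkEven
import Cfsg.Agent.Lib.Helper87.OParM.MinusQ
import Cfsg.Agent.Lib.Helper97.OHyp.OddOmega

set_option autoImplicit false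
open scoped MatrixGroups
open Matrix

namespace Cfsg.Agent.Lib.Helper43.OParM

open Cfsg.Agent.Lib.Helper23.OHyp Cfsg.Agent.Lib.Helper70.OPar Cfsg.Agent.Lib.Helper64.OParM

universe u

section tools

variable {F : Type u} [Field F]

theorem vecMulVec_mulVec' {n : Type} [Fintype n] (ε w : n → F) :
    Matrix.vecMulVec ε ε *ᵥ w = (ε ⬝ᵥ w) • ε := by
  funext i
  simp only [Matrix.mulVec, dotProduct, Matrix.vecMulVec_apply, Pi.smul_apply, smul_eq_mul,
    Finset.sum_mul]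
  apply Finset.sum_congr rfl
  intro j _
  ring

/-- A skew matrix `A` on `Fin k`, `k` odd, with `A ε = 0`, `A² = ε εᵀ - 1`, `ε · ε = 1`. -/
theorem exists_skew_odd (k : ℕ) (hk : Odd k) :
    ∃ (A : Matrix (Fin k) (Fin k) F) (ε : Fin k → F), Aᵀ = -A ∧ A *ᵥ ε = 0 ∧
      (∀ w : Fin k → F, A *ᵥ (A *ᵥ w) = (ε ⬝ᵥ w) • ε - w) ∧ ε ⬝ᵥ ε = 1 := by
  classical
  obtain ⟨j, rfl⟩ : ∃ j, k = (j + j) + 1 := by
    obtain ⟨j, hj⟩ := hk
    exact ⟨j, by omega⟩
  let e : (Fin j ⊕ Fin j) ⊕ Fin 1 ≃ Fin ((j + j) + 1) :=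
    (Equiv.sumCongr finSumFinEquiv (Equiv.refl _)).trans finSumFinEquiv
  let J : Matrix (Fin j ⊕ Fin j) (Fin j ⊕ Fin j) F := Matrix.fromBlocks 0 (-1) 1 0
  let A' : Matrix ((Fin j ⊕ Fin j) ⊕ Fin 1) ((Fin j ⊕ Fin j) ⊕ Fin 1) F :=
    Matrix.fromBlocks J 0 0 0
  let ε' : (Fin j ⊕ Fin j) ⊕ Fin 1 → F := Sum.elim 0 1
  have hJT : Jᵀ = -J := by
    simp only [J, Matrix.fromBlocks_transpose, Matrix.fromBlocks_neg]
    simp
  have hJJ : J * J = -1 := by
    simp only [J, Matrix.fromBlocks_multiply]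
    rw [← Matrix.fromBlocks_one, Matrix.fromBlocks_neg]
    simp
  have hA'T : A'ᵀ = -A' := by
    simp only [A', Matrix.fromBlocks_transpose, Matrix.fromBlocks_neg, hJT]
    simp
  have hA'A' : A' * A' = Matrix.vecMulVec ε' ε' - 1 := by
    simp only [A', Matrix.fromBlocks_multiply, hJJ]
    ext (i | i) (l | l)
    · simp [ε', Matrix.vecMulVec_apply, Matrix.one_apply]
    · simp [ε', Matrix.vecMulVec_apply, Matrix.one_apply]
    · simp [ε', Matrix.vecMulVec_apply, Matrix.one_apply]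
    · have hil := Subsingleton.elim i l
      subst hil
      simp [ε', Matrix.vecMulVec_apply, Matrix.one_apply]
  have hA'ε' : A' *ᵥ ε' = 0 := by
    funext i
    rcases i with i | i <;> simp [A', ε', Matrix.fromBlocks_mulVec]
  have hε'ε' : ε' ⬝ᵥ ε' = 1 := by
    simp [ε', dotProduct, Fintype.sum_sum_type]
  let A : Matrix (Fin ((j + j) + 1)) (Fin ((j + j) + 1)) F := A'.submatrix e.symm e.symm
  let ε : Fin ((j + j) + 1) → F := ε' ∘ e.symm
  have hAA : A * A = Matrix.vecMulVec ε ε - 1 := by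
    show A'.submatrix e.symm e.symm * A'.submatrix e.symm e.symm = _
    rw [Matrix.submatrix_mul_equiv, hA'A']
    ext i l
    simp [Matrix.submatrix_apply, Matrix.sub_apply, Matrix.vecMulVec_apply, Matrix.one_apply, ε]
  refine ⟨A, ε, ?_, ?_, ?_, ?_⟩
  · show (A'.submatrix e.symm e.symm)ᵀ = -(A'.submatrix e.symm e.symm)
    rw [Matrix.transpose_submatrix, hA'T]
    rfl
  · show A'.submatrix e.symm e.symm *ᵥ (ε' ∘ e.symm) = 0
    rw [Matrix.submatrix_mulVec_equiv]
    have h1 : (ε' ∘ ⇑e.symm) ∘ ⇑e.symm.symm = ε' := by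
      funext i
      simp
    rw [h1, hA'ε']
    rfl
  · intro w
    rw [Matrix.mulVec_mulVec, hAA, Matrix.sub_mulVec, Matrix.one_mulVec, vecMulVec_mulVec']
  · show (ε' ∘ e.symm) ⬝ᵥ (ε' ∘ e.symm) = 1
    rw [comp_equiv_symm_dotProduct]
    have h1 : (ε' ∘ ⇑e.symm) ∘ ⇑e = ε' := by
      funext i
      simp
    rw [h1, hε'ε']

/-- An anisotropic binary form over a finite field of odd order represents every scalar. -/
theorem plane_univ [Fintype F] (hodd : Fintype.card F % 2 = 1) (h2 : (2 : F) ≠ 0) (a b s : F)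
    (hab : Aniso a b) : ∃ α β : F, α ^ 2 + a * α * β + b * β ^ 2 = s := by
  classical
  have hδ : 4 * b - a ^ 2 ≠ 0 := by
    intro h
    have h1 := hab (-a) 2 (by linear_combination h)
    exact h2 h1.2
  obtain ⟨X, Y, hXY⟩ := FiniteField.exists_root_sum_quadratic
    (f := (Polynomial.X : Polynomial F) ^ 2)
    (g := Polynomial.C (4 * b - a ^ 2) * Polynomial.X ^ 2 - Polynomial.C (4 * s))
    (Polynomial.degree_X_pow 2)
    (by
      have h0 : (Polynomial.C (4 * b - a ^ 2) * Polynomial.X ^ 2 : Polynomial F).degree = 2 :=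
        Polynomial.degree_C_mul_X_pow 2 hδ
      rw [Polynomial.degree_sub_C (by rw [h0]; norm_num), h0])
    hodd
  simp only [Polynomial.eval_pow, Polynomial.eval_X, Polynomial.eval_sub, Polynomial.eval_mul,
    Polynomial.eval_C] at hXY
  refine ⟨(X - a * Y) / 2, Y, ?_⟩
  have h4 : (4 : F) ≠ 0 := by
    have h22 : (4 : F) = 2 * 2 := by norm_num
    rw [h22]
    exact mul_ne_zero h2 h2
  field_simp
  linear_combination hXY

/-- `exp(2 S)` is an isometry for a skew-adjoint `S` with `S³ = 0`. -/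
theorem isom_of_skew {ι : Type} [Fintype ι] [DecidableEq ι] (Q : (ι → F) → F)
    (hQ : Cfsg.Geo.IsNondegenerateQuadraticForm Q) (h2 : (2 : F) ≠ 0) (S : Matrix ι ι F)
    (hS3 : S * S * S = 0)
    (hskew : ∀ u v, QuadraticMap.polar Q (S *ᵥ u) v = - QuadraticMap.polar Q u (S *ᵥ v))
    (v : ι → F) : Q ((1 + ((S + S) + (S * S + S * S))) *ᵥ v) = Q v := by
  have hbil := hQ.polar_bilinear
  have hsymm : ∀ a b : ι → F, QuadraticMap.polar Q a b = QuadraticMap.polar Q b a :=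
    fun a b => QuadraticMap.polar_comm Q a b
  set w := S *ᵥ v with hw
  set w2 := S *ᵥ w with hw2
  have hSw2 : S *ᵥ w2 = 0 := by
    rw [hw2, hw, Matrix.mulVec_mulVec, Matrix.mulVec_mulVec, hS3, Matrix.zero_mulVec]
  have hzero : ∀ y : ι → F, QuadraticMap.polar Q y (0 : ι → F) = 0 := by
    intro y
    have h := hbil.smul_right 0 y (0 : ι → F)
    rwa [zero_smul, zero_mul] at h
  have hself : ∀ y : ι → F, QuadraticMap.polar Q y (S *ᵥ y) = 0 := by
    intro y
    have h1 := hskew y y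
    rw [hsymm (S *ᵥ y) y] at h1
    have h3 : (2 : F) * QuadraticMap.polar Q y (S *ᵥ y) = 0 := by
      rw [two_mul]
      nth_rewrite 1 [h1]
      exact neg_add_cancel _
    rcases mul_eq_zero.1 h3 with h | h
    · exact absurd h h2
    · exact h
  have hvw : QuadraticMap.polar Q v w = 0 := hself v
  have hww2 : QuadraticMap.polar Q w w2 = 0 := hself w
  have hvw2 : QuadraticMap.polar Q v w2 = - QuadraticMap.polar Q w w := by
    have h1 := hskew v w
    rw [← hw, ← hw2] at h1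
    rw [h1, neg_neg]
  have hw2w2 : QuadraticMap.polar Q w2 w2 = 0 := by
    have h1 := hskew w w2
    rw [← hw2, hSw2, hzero] at h1
    rw [h1, neg_zero]
  set m := w + w2 with hm
  have hmm : QuadraticMap.polar Q m m = QuadraticMap.polar Q w w := by
    rw [hm, hbil.add_left, hbil.add_right, hbil.add_right, hsymm w2 w, hww2, hw2w2]
    ring
  have hQm : QuadraticMap.polar Q m m = 2 * Q m := by
    have h1 : m + m = (2 : F) • m := (two_smul F m).symm
    unfold QuadraticMap.polar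
    rw [h1, hQ.smul]
    ring
  have hvm : QuadraticMap.polar Q v m = - QuadraticMap.polar Q w w := by
    rw [hm, hbil.add_right, hvw, hvw2]
    ring
  have hx : (1 + ((S + S) + (S * S + S * S))) *ᵥ v = v + (2 : F) • m := by
    rw [Matrix.add_mulVec, Matrix.one_mulVec, Matrix.add_mulVec, Matrix.add_mulVec,
      Matrix.add_mulVec, ← Matrix.mulVec_mulVec, ← hw, ← hw2, hm, two_smul]
    abel
  have hpol : Q (v + (2 : F) • m) = Q v + Q ((2 : F) • m) + QuadraticMap.polar Q v ((2 : F) • m) := by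
    unfold QuadraticMap.polar
    ring
  rw [hx, hpol, hbil.smul_right, hvm, hQ.smul]
  have h5 : 2 * Q m = QuadraticMap.polar Q w w := by rw [← hQm, hmm]
  linear_combination 2 * h5

end tools

section coords

variable {F : Type u} [Field F] {k : ℕ}

/-- The `e`-coordinates. -/
def p1 : (MI k → F) →ₗ[F] (Fin k → F) where
  toFun := fun v i => v (Sum.inl (Sum.inl i))
  map_add' := fun _ _ => rfl
  map_smul' := fun _ _ => rfl

/-- The `f`-coordinates. -/
def p2 : (MI k → F) →ₗ[F] (Fin k → F) where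
  toFun := fun v i => v (Sum.inl (Sum.inr i))
  map_add' := fun _ _ => rfl
  map_smul' := fun _ _ => rfl

/-- The plane coordinates. -/
def p3 : (MI k → F) →ₗ[F] (Fin 2 → F) where
  toFun := fun v i => v (Sum.inr i)
  map_add' := fun _ _ => rfl
  map_smul' := fun _ _ => rfl

/-- Injection of the `e`-part. -/
def i1 : (Fin k → F) →ₗ[F] (MI k → F) where
  toFun := fun w => Sum.elim (Sum.elim w 0) 0
  map_add' := by
    intro x y
    funext i
    rcases i with (i | i) | i <;> simp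
  map_smul' := by
    intro c x
    funext i
    rcases i with (i | i) | i <;> simp

/-- Injection of the `f`-part. -/
def i2 : (Fin k → F) →ₗ[F] (MI k → F) where
  toFun := fun w => Sum.elim (Sum.elim 0 w) 0
  map_add' := by
    intro x y
    funext i
    rcases i with (i | i) | i <;> simp
  map_smul' := by
    intro c x
    funext i
    rcases i with (i | i) | i <;> simp

/-- Injection of the plane. -/
def i3 : (Fin 2 → F) →ₗ[F] (MI k → F) where
  toFun := fun z => Sum.elim 0 z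
  map_add' := by
    intro x y
    funext i
    rcases i with (i | i) | i <;> simp
  map_smul' := by
    intro c x
    funext i
    rcases i with (i | i) | i <;> simp

theorem p1_i1 (w : Fin k → F) : p1 (i1 w : MI k → F) = w := rfl
theorem p2_i1 (w : Fin k → F) : p2 (i1 w : MI k → F) = 0 := rfl
theorem p3_i1 (w : Fin k → F) : p3 (i1 w : MI k → F) = 0 := rfl
theorem p1_i2 (w : Fin k → F) : p1 (i2 w : MI k → F) = 0 := rfl
theorem p2_i2 (w : Fin k → F) : p2 (i2 w : MI k → F) = w := rfl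
theorem p3_i2 (w : Fin k → F) : p3 (i2 w : MI k → F) = 0 := rfl
theorem p1_i3 (z : Fin 2 → F) : p1 (i3 z : MI k → F) = 0 := rfl
theorem p2_i3 (z : Fin 2 → F) : p2 (i3 z : MI k → F) = 0 := rfl
theorem p3_i3 (z : Fin 2 → F) : p3 (i3 z : MI k → F) = z := rfl

theorem ext3 {v w : MI k → F} (h1 : p1 v = p1 w) (h2 : p2 v = p2 w) (h3 : p3 v = p3 w) :
    v = w := by
  funext i
  rcases i with (i | i) | i
  · exact congrFun h1 i
  · exact congrFun h2 i
  · exact congrFun h3 i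

theorem mat_eq_zero {n : Type} [Fintype n] [DecidableEq n] (M : Matrix n n F)
    (h : ∀ v, M *ᵥ v = 0) : M = 0 := by
  apply Matrix.toLin'.injective
  apply LinearMap.ext
  intro v
  rw [Matrix.toLin'_apply, h v]
  simp

theorem mem_iso_of {ι : Type} [Fintype ι] [DecidableEq ι] (Q : (ι → F) → F) (x : GL ι F)
    (h : ∀ v, Q ((x : Matrix ι ι F) *ᵥ v) = Q v) : x ∈ Cfsg.isometryGroup F Q :=
  fun u _ => h u

end coords

/-- [UEX] -/
theorem pkgUEX : Cfsg.Agent.Lib.Helper64.OParM.PkgUEX.{u} := by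
  intro F _ _ p hp _ hp2 k a b hab hk s hs
  classical
  have hpp : p.Prime := hp.out
  have h2 : (2 : F) ≠ 0 := by
    intro h
    have h' : ((2 : ℕ) : F) = 0 := by exact_mod_cast h
    rw [CharP.cast_eq_zero_iff F p] at h'
    exact hp2 ((Nat.prime_dvd_prime_iff_eq hpp Nat.prime_two).1 h')
  have h4F : (4 : F) ≠ 0 := by
    have h22 : (4 : F) = 2 * 2 := by norm_num
    rw [h22]
    exact mul_ne_zero h2 h2
  have hp3 : 3 ≤ p := by
    have := hpp.two_le
    omega
  have hodd : Fintype.card F % 2 = 1 := by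
    apply FiniteField.odd_card_of_char_ne_two
    rw [ringChar.eq F p]
    exact hp2
  set Q := Cfsg.quadFormMinus k F a b with hQdef
  have hQ : Cfsg.Geo.IsNondegenerateQuadraticForm Q :=
    (Cfsg.Agent.Lib.Helper87.OParM.pkgMinusQ F h2 k a b hab).1
  obtain ⟨A, ε, hAT, hAε, hAA, hεε⟩ := exists_skew_odd (F := F) k hk
  obtain ⟨α, β, hαβ⟩ := plane_univ hodd h2 a b s hab
  obtain ⟨g₀, hg₀⟩ : ∃ g₀ : F, g₀ = 2 * α + a * β := ⟨_, rfl⟩
  obtain ⟨g₁, hg₁⟩ : ∃ g₁ : F, g₁ = a * α + 2 * b * β := ⟨_, rfl⟩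
  obtain ⟨c₁, hc₁⟩ : ∃ c₁ : F, c₁ = 2 * (-g₁) + a * g₀ := ⟨_, rfl⟩
  obtain ⟨c₂, hc₂⟩ : ∃ c₂ : F, c₂ = a * (-g₁) + 2 * b * g₀ := ⟨_, rfl⟩
  obtain ⟨c₀, hc₀⟩ : ∃ c₀ : F, c₀ = c₁ * (-g₁) + c₂ * g₀ := ⟨_, rfl⟩
  have h2s : g₀ * α + g₁ * β = 2 * s := by
    rw [hg₀, hg₁, ← hαβ]
    ring
  have hυne : ¬ (g₀ = 0 ∧ g₁ = 0) := by
    rintro ⟨h0, h1⟩
    have h3 : (2 : F) * s = 0 := by
      rw [← h2s, h0, h1]
      ring
    rcases mul_eq_zero.1 h3 with h | h
    · exact h2 h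
    · exact hs h
  have hc₀' : c₀ = 2 * ((-g₁) ^ 2 + a * (-g₁) * g₀ + b * g₀ ^ 2) := by
    rw [hc₀, hc₁, hc₂]
    ring
  have hc₀ne : c₀ ≠ 0 := by
    intro h
    rw [hc₀'] at h
    have h1 := (mul_eq_zero.1 h).resolve_left h2
    obtain ⟨h3, h4⟩ := hab _ _ h1
    exact hυne ⟨h4, neg_eq_zero.1 h3⟩
  have hcθ : c₁ * α + c₂ * β = 0 := by
    rw [hc₁, hc₂, hg₀, hg₁]
    ring
  let υ : Fin 2 → F := ![-g₁, g₀]
  let θ : Fin 2 → F := ![α, β]
  have hυ0 : υ 0 = -g₁ := rfl
  have hυ1 : υ 1 = g₀ := rfl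
  have hθ0 : θ 0 = α := rfl
  have hθ1 : θ 1 = β := rfl
  have hυne' : υ ≠ 0 := by
    intro h
    apply hυne
    constructor
    · have h1 := congrFun h 1
      rw [hυ1] at h1
      exact h1
    · have h1 := congrFun h 0
      rw [hυ0] at h1
      exact neg_eq_zero.1 h1
  let B2 : (Fin 2 → F) → (Fin 2 → F) → F := fun z z' =>
    2 * z 0 * z' 0 + a * (z 0 * z' 1 + z' 0 * z 1) + 2 * b * z 1 * z' 1
  have hpol : ∀ u v : MI k → F, QuadraticMap.polar Q u v =
      p1 u ⬝ᵥ p2 v + p1 v ⬝ᵥ p2 u + B2 (p3 u) (p3 v) := by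
    intro u v
    rw [hQdef, Cfsg.Agent.Lib.Helper12.OHyp.polar_quadFormMinus, Finset.sum_add_distrib]
    rfl
  have hB2l : ∀ (c : F) (z : Fin 2 → F), B2 (c • υ) z = c * (c₁ * z 0 + c₂ * z 1) := by
    intro c z
    simp only [B2, Pi.smul_apply, smul_eq_mul, hυ0, hυ1]
    rw [hc₁, hc₂]
    ring
  have hB2r : ∀ (c : F) (z : Fin 2 → F), B2 z (c • υ) = c * (c₁ * z 0 + c₂ * z 1) := by
    intro c z
    simp only [B2, Pi.smul_apply, smul_eq_mul, hυ0, hυ1]
    rw [hc₁, hc₂]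
    ring
  -- the skew-adjoint operator
  let bℓ : (MI k → F) →ₗ[F] F :=
    { toFun := fun v => c₁ * v (Sum.inr 0) + c₂ * v (Sum.inr 1)
      map_add' := by
        intro x y
        simp only [Pi.add_apply]
        ring
      map_smul' := by
        intro c x
        simp only [Pi.smul_apply, smul_eq_mul, RingHom.id_apply]
        ring }
  let εℓ : (Fin k → F) →ₗ[F] F :=
    { toFun := fun w => ε ⬝ᵥ w
      map_add' := fun x y => dotProduct_add ε x y
      map_smul' := by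
        intro c x
        simp [dotProduct_smul] }
  let Sℓ : (MI k → F) →ₗ[F] (MI k → F) :=
    (i1 (F := F) (k := k)).comp (A.mulVecLin.comp p2 - bℓ.smulRight ε) +
      (i3 (F := F) (k := k)).comp ((εℓ.comp p2).smulRight υ)
  have hSdef : ∀ v, Sℓ v = i1 (A *ᵥ p2 v - (c₁ * p3 v 0 + c₂ * p3 v 1) • ε) +
      i3 ((ε ⬝ᵥ p2 v) • υ) := fun v => rfl
  have hS1 : ∀ v, p1 (Sℓ v) = A *ᵥ p2 v - (c₁ * p3 v 0 + c₂ * p3 v 1) • ε := by
    intro v
    rw [hSdef, map_add, p1_i1, p1_i3, add_zero]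
  have hS2 : ∀ v, p2 (Sℓ v) = 0 := by
    intro v
    rw [hSdef, map_add, p2_i1, p2_i3, add_zero]
  have hS3 : ∀ v, p3 (Sℓ v) = (ε ⬝ᵥ p2 v) • υ := by
    intro v
    rw [hSdef, map_add, p3_i1, p3_i3, zero_add]
  have hAskew : ∀ x y : Fin k → F, (A *ᵥ x) ⬝ᵥ y = -((A *ᵥ y) ⬝ᵥ x) := by
    intro x y
    rw [dotProduct_comm (A *ᵥ x) y, Matrix.dotProduct_mulVec, ← Matrix.mulVec_transpose, hAT,
      Matrix.neg_mulVec, neg_dotProduct]
  have hεA : ∀ x : Fin k → F, ε ⬝ᵥ (A *ᵥ x) = 0 := by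
    intro x
    rw [dotProduct_comm, hAskew, hAε, zero_dotProduct, neg_zero]
  have hskewℓ : ∀ u v, QuadraticMap.polar Q (Sℓ u) v = - QuadraticMap.polar Q u (Sℓ v) := by
    intro u v
    rw [hpol, hpol, hS1, hS2, hS3, hS1, hS2, hS3, hB2l, hB2r, sub_dotProduct, sub_dotProduct,
      smul_dotProduct, smul_dotProduct, dotProduct_zero, dotProduct_zero,
      hAskew (p2 u) (p2 v)]
    simp only [smul_eq_mul]
    ring
  -- `t`
  let t : MI k → F := i3 θ
  have hQt : Q t = s := by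
    rw [← hαβ, hQdef]
    simp [Cfsg.quadFormMinus, t, i3, θ]
  have hSt : Sℓ t = 0 := by
    apply ext3
    · rw [hS1, map_zero]
      show A *ᵥ p2 (i3 θ : MI k → F) - (c₁ * p3 (i3 θ : MI k → F) 0 + c₂ * p3 (i3 θ : MI k → F) 1) • ε = 0
      rw [p2_i3, p3_i3, hθ0, hθ1, hcθ, Matrix.mulVec_zero, zero_smul, sub_zero]
    · rw [hS2, map_zero]
    · rw [hS3, map_zero]
      show (ε ⬝ᵥ p2 (i3 θ : MI k → F)) • υ = 0
      rw [p2_i3, dotProduct_zero, zero_smul]
  -- `S² v` is a multiple of `e`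
  have hSS : ∀ v, Sℓ (Sℓ v) = (-(c₁ * p3 (Sℓ v) 0 + c₂ * p3 (Sℓ v) 1)) • (i1 ε : MI k → F) := by
    intro v
    rw [hSdef (Sℓ v), hS2, Matrix.mulVec_zero, dotProduct_zero, zero_smul, map_zero, add_zero,
      zero_sub, ← neg_smul, map_smul]
  have hSe : Sℓ (i1 ε : MI k → F) = 0 := by
    rw [hSdef, p2_i1, p3_i1, Matrix.mulVec_zero, dotProduct_zero, zero_smul, map_zero, add_zero]
    simp
  have hSSS : ∀ v, Sℓ (Sℓ (Sℓ v)) = 0 := by
    intro v
    rw [hSS v, map_smul, hSe, smul_zero]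
  -- the kernel
  have hkerℓ : ∀ v, Sℓ v = 0 → ∃ (c : F) (u : MI k → F), v = c • t + Sℓ u := by
    intro v hv
    have h1 := hS1 v
    have h3 := hS3 v
    rw [hv, map_zero] at h1 h3
    have hεv : ε ⬝ᵥ p2 v = 0 := by
      rcases smul_eq_zero.1 h3.symm with h | h
      · exact h
      · exact absurd h hυne'
    have hb : c₁ * p3 v 0 + c₂ * p3 v 1 = 0 := by
      have h4 := congrArg (fun y => ε ⬝ᵥ y) h1
      simp only [dotProduct_zero, dotProduct_sub, dotProduct_smul, hεA, hεε, smul_eq_mul,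
        mul_one, zero_sub] at h4
      exact neg_eq_zero.1 h4.symm
    have hAv : A *ᵥ p2 v = 0 := by
      rw [hb, zero_smul, sub_zero] at h1
      exact h1.symm
    have hp2v : p2 v = 0 := by
      have h4 := hAA (p2 v)
      rw [hAv, Matrix.mulVec_zero, hεv, zero_smul, zero_sub] at h4
      exact neg_eq_zero.1 h4.symm
    -- the plane part
    obtain ⟨z0, hz0⟩ : ∃ z0 : F, z0 = p3 v 0 := ⟨_, rfl⟩
    obtain ⟨z1, hz1⟩ : ∃ z1 : F, z1 = p3 v 1 := ⟨_, rfl⟩
    rw [← hz0, ← hz1] at hb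
    have hδ : α * z1 - β * z0 = 0 := by
      have h5 : (α * z1 - β * z0) * c₀ = (c₁ * z0 + c₂ * z1) * (g₀ * α + g₁ * β) := by
        rw [hc₀, hc₁, hc₂, hg₀, hg₁]
        ring
      rw [hb, zero_mul] at h5
      exact (mul_eq_zero.1 h5).resolve_right hc₀ne
    have hs2 : (2 : F) * s ≠ 0 := mul_ne_zero h2 hs
    have hz0' : z0 = ((g₀ * z0 + g₁ * z1) / (2 * s)) * α := by
      have h5 : (g₀ * α + g₁ * β) * z0 = (g₀ * z0 + g₁ * z1) * α + (α * z1 - β * z0) * (-g₁) := by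
        ring
      rw [hδ, zero_mul, add_zero, h2s] at h5
      field_simp
      linear_combination h5
    have hz1' : z1 = ((g₀ * z0 + g₁ * z1) / (2 * s)) * β := by
      have h5 : (g₀ * α + g₁ * β) * z1 = (g₀ * z0 + g₁ * z1) * β + (α * z1 - β * z0) * g₀ := by
        ring
      rw [hδ, zero_mul, add_zero, h2s] at h5
      field_simp
      linear_combination h5
    have hp3v : p3 v = ((g₀ * z0 + g₁ * z1) / (2 * s)) • θ := by
      funext i
      fin_cases i
      · show p3 v 0 = ((g₀ * z0 + g₁ * z1) / (2 * s)) * θ 0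
        rw [← hz0, hθ0]
        exact hz0'
      · show p3 v 1 = ((g₀ * z0 + g₁ * z1) / (2 * s)) * θ 1
        rw [← hz1, hθ1]
        exact hz1'
    refine ⟨(g₀ * z0 + g₁ * z1) / (2 * s),
      i2 (-(A *ᵥ p1 v)) + i3 ((-(ε ⬝ᵥ p1 v) / c₀) • υ), ?_⟩
    have hbυ : c₁ * υ 0 + c₂ * υ 1 = c₀ := by
      rw [hυ0, hυ1, hc₀]
    apply ext3
    · rw [map_add, map_smul, hS1, map_add, p2_i2, p2_i3, add_zero, map_add, p3_i2, p3_i3,
        zero_add]
      show p1 v = ((g₀ * z0 + g₁ * z1) / (2 * s)) • p1 (i3 θ : MI k → F) + _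
      rw [p1_i3, smul_zero, zero_add, Matrix.mulVec_neg, hAA]
      have h6 : c₁ * ((-(ε ⬝ᵥ p1 v) / c₀) • υ) 0 + c₂ * ((-(ε ⬝ᵥ p1 v) / c₀) • υ) 1
          = -(ε ⬝ᵥ p1 v) := by
        simp only [Pi.smul_apply, smul_eq_mul]
        have h7 : c₁ * (-(ε ⬝ᵥ p1 v) / c₀ * υ 0) + c₂ * (-(ε ⬝ᵥ p1 v) / c₀ * υ 1)
            = (-(ε ⬝ᵥ p1 v) / c₀) * (c₁ * υ 0 + c₂ * υ 1) := by ring
        rw [h7, hbυ]
        field_simp
      rw [h6, neg_smul]
      abel
    · rw [map_add, map_smul, hS2, add_zero]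
      show p2 v = ((g₀ * z0 + g₁ * z1) / (2 * s)) • p2 (i3 θ : MI k → F)
      rw [p2_i3, smul_zero, hp2v]
    · rw [map_add, map_smul, hS3, map_add, p2_i2, p2_i3, add_zero, dotProduct_neg, hεA,
        neg_zero, zero_smul, add_zero]
      show p3 v = ((g₀ * z0 + g₁ * z1) / (2 * s)) • p3 (i3 θ : MI k → F)
      rw [p3_i3, hp3v]
  -- `S ≠ 0`
  have hSne : Sℓ (i2 ε : MI k → F) ≠ 0 := by
    intro h
    have h3 := hS3 (i2 ε : MI k → F)
    rw [h, map_zero, p2_i2, hεε, one_smul] at h3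
    exact hυne' h3.symm
  -- the matrix
  let S : Matrix (MI k) (MI k) F := LinearMap.toMatrix' Sℓ
  have hSmul : ∀ v, S *ᵥ v = Sℓ v := fun v => LinearMap.toMatrix'_mulVec Sℓ v
  have hS3m : S * S * S = 0 := by
    apply mat_eq_zero
    intro v
    rw [← Matrix.mulVec_mulVec, ← Matrix.mulVec_mulVec, hSmul, hSmul, hSmul]
    exact hSSS v
  have hskew : ∀ u v, QuadraticMap.polar Q (S *ᵥ u) v = - QuadraticMap.polar Q u (S *ᵥ v) := by
    intro u v
    rw [hSmul, hSmul]
    exact hskewℓ u v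
  haveI : Nonempty (MI k) := ⟨Sum.inr 0⟩
  let n : Matrix (MI k) (MI k) F := (S + S) + (S * S + S * S)
  let n' : Matrix (MI k) (MI k) F := -(S + S) + (S * S + S * S)
  have hab' : (1 + n) * (1 + n') = 1 := by
    have e1 : (1 + n) * (1 + n') = 1 + (S * S * S) * (S + S + S + S) := by
      simp only [n, n']
      noncomm_ring
    rw [e1, hS3m, Matrix.zero_mul, add_zero]
  have hba' : (1 + n') * (1 + n) = 1 := by
    have e1 : (1 + n') * (1 + n) = 1 + (S * S * S) * (S + S + S + S) := by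
      simp only [n, n']
      noncomm_ring
    rw [e1, hS3m, Matrix.zero_mul, add_zero]
  have hn3' : n * n * n = 0 := by
    have e1 : n * n * n = (S * S * S) * ((8 : ℤ) • (1 : Matrix (MI k) (MI k) F) + (24 : ℤ) • S
        + (24 : ℤ) • (S * S) + (8 : ℤ) • (S * S * S)) := by
      simp only [n]
      noncomm_ring
    rw [e1, hS3m, Matrix.zero_mul]
  have hn3 : n ^ 3 = 0 := by
    rw [pow_succ, pow_two, hn3']
  have hnn : n + n = (S + S + S + S) + n * n := by
    have e1 : n + n = (S + S + S + S) + n * n - (S * S * S) * ((8 : ℤ) • (1 : Matrix (MI k) (MI k) F)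
        + (4 : ℤ) • S) := by
      simp only [n]
      noncomm_ring
    rw [e1, hS3m, Matrix.zero_mul, sub_zero]
  have hnn2 : n * n = S * S + S * S + S * S + S * S := by
    have e1 : n * n = (S * S + S * S + S * S + S * S) + (S * S * S) * ((8 : ℤ) • (1 : Matrix (MI k) (MI k) F)
        + (4 : ℤ) • S) := by
      simp only [n]
      noncomm_ring
    rw [e1, hS3m, Matrix.zero_mul, add_zero]
  have hkey1 : (1 - S + S * S) * n = (S + S) := by
    have e1 : (1 - S + S * S) * n = (S + S) + (S * S * S) * (S + S) := by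
      simp only [n]
      noncomm_ring
    rw [e1, hS3m, Matrix.zero_mul, add_zero]
  have hkey2 : n * (1 - S + S * S) = (S + S) := by
    have e1 : n * (1 - S + S * S) = (S + S) + (S * S * S) * (S + S) := by
      simp only [n]
      noncomm_ring
    rw [e1, hS3m, Matrix.zero_mul, add_zero]
  let x : GL (MI k) F := ⟨1 + n, 1 + n', hab', hba'⟩
  have hxval : (x : Matrix (MI k) (MI k) F) = 1 + n := rfl
  have hxsub : (x : Matrix (MI k) (MI k) F) - 1 = n := by
    rw [hxval, add_sub_cancel_left]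
  have hxiso : x ∈ Cfsg.isometryGroup F Q := by
    apply mem_iso_of
    intro u
    rw [hxval]
    exact isom_of_skew Q hQ h2 S hS3m hskew u
  have hxp : x ^ p = 1 := by
    apply Units.ext
    rw [Units.val_pow_eq_pow_val, Units.val_one]
    show (1 + n) ^ p = 1
    rw [add_pow_char_of_commute p (Commute.one_left n), one_pow,
      pow_eq_zero_of_le hp3 hn3, add_zero]
  have hS0 : S ≠ 0 := by
    intro h
    apply hSne
    rw [← hSmul, h, Matrix.zero_mulVec]
  have hx1 : x ≠ 1 := by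
    intro h
    have hn0 : n = 0 := by
      rw [← hxsub, h, Units.val_one, sub_self]
    rw [hn0] at hnn
    have h4S : (4 : F) • S = 0 := by
      have e : (4 : F) • S = S + S + S + S := by module
      rw [e]
      simpa using hnn.symm
    rcases smul_eq_zero.1 h4S with h' | h'
    · exact h4F h'
    · exact hS0 h'
  have hord : orderOf x = p := orderOf_eq_prime hxp hx1
  have hxΩ : x ∈ Cfsg.Geo.omegaGL Q :=
    Cfsg.Agent.Lib.Helper97.OHyp.pkgOddOmega F (MI k) Q hQ h2 x hxiso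
      (by rw [hord]; exact hpp.odd_of_ne_two hp2)
  refine ⟨x, t, hxΩ, hxp, hx1, hQt, ?_, ?_, ?_, ?_⟩
  · rw [hxsub]
    exact hn3'
  · rw [hxsub]
    show ((S + S) + (S * S + S * S)) *ᵥ t = 0
    simp only [Matrix.add_mulVec, ← Matrix.mulVec_mulVec, hSmul, hSt, map_zero, add_zero]
  · intro v hv
    rw [hxsub] at hv ⊢
    have hSv : Sℓ v = 0 := by
      have h5 : (S + S) *ᵥ v = 0 := by
        rw [← hkey1, ← Matrix.mulVec_mulVec, hv, Matrix.mulVec_zero]
      rw [Matrix.add_mulVec, hSmul, ← two_smul F] at h5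
      rcases smul_eq_zero.1 h5 with h | h
      · exact absurd h h2
      · exact h
    obtain ⟨c, u₀, hcu⟩ := hkerℓ v hSv
    refine ⟨c, (2⁻¹ : F) • ((1 - S + S * S) *ᵥ u₀), ?_⟩
    rw [Matrix.mulVec_smul, Matrix.mulVec_mulVec, hkey2, Matrix.add_mulVec, hSmul, ← two_smul F,
      smul_smul, inv_mul_cancel₀ h2, one_smul]
    exact hcu
  · have hle : LinearMap.range (Matrix.toLin' (((x : Matrix (MI k) (MI k) F) - 1) *
        ((x : Matrix (MI k) (MI k) F) - 1))) ≤ Submodule.span F {(i1 ε : MI k → F)} := by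
      rintro _ ⟨v, rfl⟩
      rw [hxsub, hnn2, Matrix.toLin'_apply]
      simp only [Matrix.add_mulVec, ← Matrix.mulVec_mulVec, hSmul, hSS]
      refine Submodule.add_mem _ (Submodule.add_mem _ (Submodule.add_mem _ ?_ ?_) ?_) ?_ <;>
        exact Submodule.smul_mem _ _ (Submodule.mem_span_singleton_self _)
    refine le_trans (Submodule.finrank_mono hle) ?_
    have hne : (i1 ε : MI k → F) ≠ 0 := by
      intro h
      have h1 := congrArg (fun y : MI k → F => p1 y) h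
      simp only [p1_i1, map_zero] at h1
      rw [h1, dotProduct_zero] at hεε
      exact zero_ne_one hεε
    rw [finrank_span_singleton hne]

end Cfsg.Agent.Lib.Helper43.OParM
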